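import Cfsg.Agent.H845.TW.Defs

/-!
# S2452, S2464, `PSp_2n(q)`: corners `1` in dimension four (helper91)

* `c1_neg` : `(P, (g + 1) P)` is a `C1` pair for `-g`;
* `sp_two` : `C1On B g R`, `dim R = 4`: singular vectors `p`, `r` with `B p r ≠ 0`, or `C1On B (-g) R`.
-/

set_option autoImplicit false

namespace Cfsg.Agent.H91.TW

open Cfsg.Agent.H144 Cfsg.Agent.H845.TW Module

variable {F V : Type*} [Field F] [AddCommGroup V] [Module F V]

/-- `(P, (g + 1) P)` is a `C1` pair for `-g` -/
theorem c1_neg [FiniteDimensional F V] {B : LinearMap.BilinForm F V} (hB : Alt B) {g : V ≃ₗ[F] V} (hg : Iso B g)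
    {R P : Submodule F V} (hI : Inv g R) (hPR : P ≤ R) (hP : Orth B P P)
    (hs : ∀ v ∈ P, ∀ w ∈ P, B (g v) w = B (g w) v) (hd : 2 * finrank F P = finrank F R)
    (h0 : ∀ v ∈ P, g v ∈ P → v = 0) : C1On B (ng g) R := by
  let T : V →ₗ[F] V := (g : V →ₗ[F] V) + LinearMap.id
  have hT : ∀ v, T v = g v + v := fun v => rfl
  have hQR : P.map T ≤ R := by
    rintro _ ⟨v, hv, rfl⟩
    rw [hT]
    exact R.add_mem (hI v (hPR hv)) (hPR hv)
  have hinj : Function.Injective (T.domRestrict P) := by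
    rw [← LinearMap.ker_eq_bot, LinearMap.ker_eq_bot']
    rintro ⟨v, hv⟩ h
    have h1 : g v + v = 0 := h
    have h2 : g v = -v := eq_neg_of_add_eq_zero_left h1
    exact Subtype.ext (h0 v hv (by rw [h2]; exact P.neg_mem hv))
  have hfin : finrank F (P.map T) = finrank F P := by
    have h1 := LinearMap.finrank_range_of_inj hinj
    rw [LinearMap.range_domRestrict] at h1
    exact h1
  have hinf : P ⊓ P.map T = ⊥ := by
    rw [eq_bot_iff]
    rintro x ⟨hx, v, hv, rfl⟩
    rw [SetLike.mem_coe, hT] at hx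
    have h1 : g v ∈ P := by
      have h2 := P.sub_mem hx hv
      rwa [add_sub_cancel_right] at h2
    rw [h0 v hv h1, map_zero]
    exact Submodule.zero_mem _
  refine ⟨P, P.map T, hP, ?_, ?_, ?_⟩
  · rintro _ ⟨v, hv, rfl⟩ _ ⟨w, hw, rfl⟩
    rw [hT, hT]
    simp only [map_add, LinearMap.add_apply]
    have h1 : B v (g w) = -B (g w) v := hB.neg _ _
    rw [hg v w, h1, hP v hv w hw, hs v hv w hw]
    ring
  · refine Submodule.eq_of_le_of_finrank_le (sup_le hPR hQR) ?_
    have h1 := Submodule.finrank_sup_add_finrank_inf_eq P (P.map T)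
    rw [hinf, finrank_bot, hfin] at h1
    omega
  · intro v hv
    refine ⟨-v, P.neg_mem hv, ?_⟩
    rw [hT, ng_apply, map_neg]
    abel

/-- **Corner one in dimension four.** -/
theorem sp_two [FiniteDimensional F V] {B : LinearMap.BilinForm F V} (hB : Alt B) {g : V ≃ₗ[F] V} (hg : Iso B g)
    {R : Submodule F V} (hR : Nd B R) (hI : Inv g R) (h : C1On B g R) (hfin : finrank F R = 2 * 2) :
    SP B g R ∨ C1On B (ng g) R := by
  obtain ⟨P, Q, hP, hQ, hPQ, hPg⟩ := h
  have hPR : P ≤ R := hPQ ▸ le_sup_left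
  have hQR : Q ≤ R := hPQ ▸ le_sup_right
  -- nondegeneracy
  have zP : ∀ v ∈ P, (∀ w ∈ Q, B v w = 0) → v = 0 := by
    intro v hv h0
    refine hR v (hPR hv) fun w hw => ?_
    rw [← hPQ] at hw
    obtain ⟨a, ha, b, hb, rfl⟩ := Submodule.mem_sup.1 hw
    rw [map_add, hP v hv a ha, h0 b hb, add_zero]
  have zQ : ∀ v ∈ Q, (∀ w ∈ P, B v w = 0) → v = 0 := by
    intro v hv h0
    refine hR v (hQR hv) fun w hw => ?_
    rw [← hPQ] at hw
    obtain ⟨a, ha, b, hb, rfl⟩ := Submodule.mem_sup.1 hw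
    rw [map_add, h0 a ha, hQ v hv b hb, add_zero]
  have hinf : P ⊓ Q = ⊥ := by
    rw [eq_bot_iff]
    rintro x ⟨hx, hx'⟩
    exact zP x hx fun w hw => hQ x hx' w hw
  -- dimensions
  have e1 : finrank F P ≤ finrank F Q := by
    let f : P →ₗ[F] Dual F Q := (Q.subtype.dualMap ∘ₗ B) ∘ₗ P.subtype
    have hf : Function.Injective f := by
      rw [← LinearMap.ker_eq_bot, LinearMap.ker_eq_bot']
      rintro ⟨v, hv⟩ h0
      refine Subtype.ext (zP v hv fun w hw => ?_)
      exact LinearMap.congr_fun h0 ⟨w, hw⟩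
    rw [← Subspace.dual_finrank_eq (K := F) (V := Q)]
    exact LinearMap.finrank_le_finrank_of_injective hf
  have e2 : finrank F Q ≤ finrank F P := by
    let f : Q →ₗ[F] Dual F P := (P.subtype.dualMap ∘ₗ B) ∘ₗ Q.subtype
    have hf : Function.Injective f := by
      rw [← LinearMap.ker_eq_bot, LinearMap.ker_eq_bot']
      rintro ⟨v, hv⟩ h0
      refine Subtype.ext (zQ v hv fun w hw => ?_)
      exact LinearMap.congr_fun h0 ⟨w, hw⟩
    rw [← Subspace.dual_finrank_eq (K := F) (V := P)]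
    exact LinearMap.finrank_le_finrank_of_injective hf
  have e3 := Submodule.finrank_sup_add_finrank_inf_eq P Q
  rw [hPQ, hinf, finrank_bot, hfin] at e3
  have dP : finrank F P = 2 := by omega
  have dQ : finrank F Q = 2 := by omega
  -- symmetry on `P`
  have sP : ∀ v ∈ P, ∀ w ∈ P, B (g v) w = B (g w) v := by
    intro v hv w hw
    have h1 := hg v w
    have h2 := hQ _ (hPg v hv) _ (hPg w hw)
    simp only [map_sub, LinearMap.sub_apply] at h2
    have h3 := hP v hv w hw
    have h4 : B v (g w) = -B (g w) v := hB.neg _ _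
    rw [h1, h3, h4] at h2
    linear_combination -h2
  -- the `P`-component of `g w`, `w ∈ Q`
  have cQ : ∀ w ∈ Q, ∃ a ∈ P, g w - a ∈ Q ∧ g a = g w - w := by
    intro w hw
    have h1 := hI w (hQR hw)
    rw [← hPQ] at h1
    obtain ⟨a, ha, b, hb, hab⟩ := Submodule.mem_sup.1 h1
    have hb' : b = g w - a := by rw [← hab]; abel
    refine ⟨a, ha, hb' ▸ hb, ?_⟩
    have hc : g w - g a - w ∈ Q := by
      have h2 : g w - g a - w = b - (g a - a) - w := by rw [hb']; abel
      rw [h2]
      exact Q.sub_mem (Q.sub_mem hb (hPg a ha)) hw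
    have h3 : g w - g a - w = 0 := by
      refine zQ _ hc fun v hv => ?_
      have k1 := hg w v
      have k2 : B b (g v - v) = 0 := hQ b hb _ (hPg v hv)
      have k3 := sP a ha v hv
      have k4 : B a (g v) = -B (g v) a := hB.neg _ _
      have k5 := hP a ha v hv
      rw [hb'] at k2
      simp only [map_sub, LinearMap.sub_apply] at k2 ⊢
      linear_combination k1 - k2 - k3 - k4 + k5
    have h4 : g a = g w - w := by
      have h5 : g w - w = g w - g a - w + g a := by abel
      rw [h5, h3, zero_add]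
    exact h4
  -- symmetry on `Q`
  have sQ : ∀ v ∈ Q, ∀ w ∈ Q, B (g v) w = B (g w) v := by
    intro v hv w hw
    obtain ⟨a, ha, ha1, ha2⟩ := cQ v hv
    obtain ⟨b, hb, hb1, hb2⟩ := cQ w hw
    -- `g (w - b) = w`
    have h1 : g (w - b) = w := by rw [map_sub, hb2]; abel
    have h2 : B (g v) w = B v (w - b) := by
      nth_rewrite 1 [← h1]
      exact hg v (w - b)
    have h3 : B (g w - b) v = 0 := hQ _ hb1 v hv
    have h4 := hQ v hv w hw
    have h5 : B v b = -B b v := hB.neg _ _
    rw [h2]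
    simp only [map_sub, LinearMap.sub_apply] at h3 ⊢
    rw [h4, h5]
    linear_combination -h3
  have fQ : ∀ w ∈ Q, g w ∈ Q → g w = w := by
    intro w hw h1
    obtain ⟨a, ha, ha1, ha2⟩ := cQ w hw
    have h2 : a ∈ P ⊓ Q := by
      refine ⟨ha, ?_⟩
      have h3 : a = g w - (g w - a) := by abel
      rw [h3]
      exact Q.sub_mem h1 ha1
    rw [hinf, Submodule.mem_bot] at h2
    rw [h2, map_zero] at ha2
    exact (sub_eq_zero.1 ha2.symm)
  have fP : ∀ v ∈ P, g v ∈ P → g v = v := by
    intro v hv h1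
    have h2 : g v - v ∈ P ⊓ Q := ⟨P.sub_mem h1 hv, hPg v hv⟩
    rw [hinf, Submodule.mem_bot] at h2
    exact sub_eq_zero.1 h2
  -- fixed vectors
  by_cases c1 : ∀ v ∈ P, g v = v → v = 0
  · exact Or.inr (c1_neg hB hg hI hPR hP sP (by rw [dP, hfin]) fun v hv h1 => c1 v hv (fP v hv h1))
  by_cases c2 : ∀ v ∈ Q, g v = v → v = 0
  · exact Or.inr (c1_neg hB hg hI hQR hQ sQ (by rw [dQ, hfin]) fun v hv h1 => c2 v hv (fQ v hv h1))
  push Not at c1 c2
  obtain ⟨p, hp, hgp, hp0⟩ := c1
  obtain ⟨r, hr, hgr, hr0⟩ := c2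
  by_cases c3 : B p r = 0
  swap
  · exact Or.inl ⟨P, Q, hP, hQ, hPQ, hPg, p, hp, r, hr, c3, by rw [hgp, hB], by rw [hgr, hB]⟩
  by_cases c4 : ∀ v ∈ P, g v = v
  · left
    obtain ⟨v, hv, hvr⟩ : ∃ v ∈ P, B v r ≠ 0 := by
      by_contra hcon
      push Not at hcon
      exact hr0 (zQ r hr fun w hw => hB.zero (hcon w hw))
    exact ⟨P, Q, hP, hQ, hPQ, hPg, v, hv, r, hr, hvr, by rw [c4 v hv, hB], by rw [hgr, hB]⟩
  by_cases c5 : ∀ v ∈ Q, g v = v
  · left
    obtain ⟨v, hv, hvr⟩ : ∃ v ∈ Q, B p v ≠ 0 := by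
      by_contra hcon
      push Not at hcon
      exact hp0 (zP p hp hcon)
    exact ⟨P, Q, hP, hQ, hPQ, hPg, p, hp, v, hv, hvr, by rw [hgp, hB], by rw [c5 v hv, hB]⟩
  right
  -- the basis `p, e` of `P`
  obtain ⟨e, he, hep⟩ : ∃ e ∈ P, e ∉ Submodule.span F {p} := by
    by_contra hcon
    push Not at hcon
    have h1 := Submodule.finrank_mono (show P ≤ Submodule.span F {p} from hcon)
    have h2 := finrank_span_singleton (K := F) hp0
    omega
  have hspan : ∀ v ∈ P, ∃ s t : F, v = s • p + t • e := by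
    have hli : LinearIndependent F ![p, e] := by
      rw [LinearIndependent.pair_iff' hp0]
      intro a ha
      exact hep (Submodule.mem_span_singleton.2 ⟨a, ha⟩)
    have h1 := finrank_span_eq_card hli
    have h2 : Set.range ![p, e] = {p, e} := by simp [Matrix.range_cons, Matrix.range_empty, Set.pair_comm]
    rw [h2, Fintype.card_fin] at h1
    have h3 : Submodule.span F {p, e} = P := by
      refine Submodule.eq_of_le_of_finrank_le ?_ (by rw [h1, dP])
      rw [Submodule.span_le]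
      rintro x (rfl | rfl)
      · exact hp
      · exact he
    intro v hv
    rw [← h3] at hv
    obtain ⟨s, t, hst⟩ := Submodule.mem_span_pair.1 hv
    exact ⟨s, t, hst.symm⟩
  have her : B e r ≠ 0 := by
    intro h0
    refine hr0 (zQ r hr fun w hw => ?_)
    obtain ⟨s, t, rfl⟩ := hspan w hw
    rw [hB.neg]
    simp only [map_add, map_smul, LinearMap.add_apply, LinearMap.smul_apply, c3, h0, smul_zero, add_zero, neg_zero]
  -- `f ∈ Q` orthogonal to `e`
  obtain ⟨f, hf, hf0, hef⟩ : ∃ f ∈ Q, f ≠ 0 ∧ B e f = 0 := by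
    obtain ⟨w, hw, hwr⟩ : ∃ w ∈ Q, w ∉ Submodule.span F {r} := by
      by_contra hcon
      push Not at hcon
      have h1 := Submodule.finrank_mono (show Q ≤ Submodule.span F {r} from hcon)
      have h2 := finrank_span_singleton (K := F) hr0
      omega
    refine ⟨w - (B e w / B e r) • r, Q.sub_mem hw (Q.smul_mem _ hr), ?_, ?_⟩
    · intro h0
      exact hwr (Submodule.mem_span_singleton.2 ⟨_, (sub_eq_zero.1 h0).symm⟩)
    · rw [map_sub, map_smul, smul_eq_mul, div_mul_cancel₀ _ her, sub_self]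
  have hpf : B p f ≠ 0 := by
    intro h0
    refine hf0 (zQ f hf fun w hw => ?_)
    obtain ⟨s, t, rfl⟩ := hspan w hw
    rw [hB.neg]
    simp only [map_add, map_smul, LinearMap.add_apply, LinearMap.smul_apply, h0, hef, smul_zero, add_zero, neg_zero]
  have hspanQ : ∀ x ∈ Q, x = (B e x / B e r) • r + (B p x / B p f) • f := by
    intro x hx
    rw [← sub_eq_zero]
    refine zQ _ (Q.sub_mem hx (Q.add_mem (Q.smul_mem _ hr) (Q.smul_mem _ hf))) fun w hw => ?_
    obtain ⟨s, t, rfl⟩ := hspan w hw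
    rw [hB.neg]
    simp only [map_add, map_sub, map_smul, LinearMap.add_apply, LinearMap.smul_apply, c3, hef, smul_eq_mul, mul_zero,
      zero_add, add_zero]
    field_simp
    ring
  -- `g e = e + α r`
  obtain ⟨α, hα⟩ : ∃ α : F, g e = e + α • r := by
    refine ⟨B e (g e - e) / B e r, ?_⟩
    have h1 := hspanQ _ (hPg e he)
    have h2 : B p (g e - e) = 0 := by
      have h3 := sP e he p hp
      rw [hgp, hP p hp e he] at h3
      rw [map_sub, hP p hp e he, hB.zero h3, sub_zero]
    rw [h2, zero_div, zero_smul, add_zero] at h1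
    rw [← h1]
    abel
  -- `g f = f + β p`
  obtain ⟨β, hβ⟩ : ∃ β : F, g f = f + β • p := by
    obtain ⟨a, ha, ha1, ha2⟩ := cQ f hf
    obtain ⟨s, t, hst⟩ := hspan a ha
    have h1 : B a r = 0 := by
      have h2 := hQ _ ha1 r hr
      have h3 := sQ f hf r hr
      rw [hgr, hQ r hr f hf] at h3
      rw [map_sub, LinearMap.sub_apply, h3, zero_sub, neg_eq_zero] at h2
      exact h2
    rw [hst] at h1
    simp only [map_add, map_smul, LinearMap.add_apply, LinearMap.smul_apply, c3, smul_eq_mul, mul_zero,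
      zero_add] at h1
    have ht : t = 0 := (mul_eq_zero.1 h1).resolve_right her
    refine ⟨s, ?_⟩
    rw [hst, ht, zero_smul, add_zero, map_smul, hgp] at ha2
    rw [ha2]
    abel
  have hα0 : α ≠ 0 := by
    rintro rfl
    apply c4
    intro v hv
    obtain ⟨s, t, rfl⟩ := hspan v hv
    rw [map_add, map_smul, map_smul, hgp, hα, zero_smul, add_zero]
  have hβ0 : β ≠ 0 := by
    rintro rfl
    apply c5
    intro v hv
    rw [hspanQ v hv, map_add, map_smul, map_smul, hgr, hβ, zero_smul, add_zero]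
  have hfe : B f e = 0 := hB.zero hef
  have hre : B r e ≠ 0 := fun h0 => her (hB.zero h0)
  have hrf : B r f = 0 := hQ r hr f hf
  have hpe : B p e = 0 := hP p hp e he
  have hfr : B f r = 0 := hQ f hf r hr
  have hepz : B e p = 0 := hP e he p hp
  -- the plane `⟨e, f⟩`
  have hS : Submodule.span F {e, f} ≤ R := by
    rw [Submodule.span_le]
    rintro x (rfl | rfl)
    · exact hPR he
    · exact hQR hf
  have he0 : e ≠ 0 := by
    rintro rfl
    exact hep (Submodule.zero_mem _)
  have hli : LinearIndependent F ![e, f] := by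
    rw [LinearIndependent.pair_iff' he0]
    intro a ha
    have h1 : f ∈ P ⊓ Q := ⟨ha ▸ P.smul_mem a he, hf⟩
    rw [hinf, Submodule.mem_bot] at h1
    exact hf0 h1
  have hfr2 : finrank F (Submodule.span F {e, f}) = 2 := by
    have h1 := finrank_span_eq_card hli
    have h2 : Set.range ![e, f] = {e, f} := by simp [Matrix.range_cons, Matrix.range_empty, Set.pair_comm]
    rw [h2, Fintype.card_fin] at h1
    exact h1
  refine c1_neg hB hg (P := Submodule.span F {e, f}) hI hS ?_ ?_ (by rw [hfr2, hfin]) ?_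
  · intro v hv w hw
    obtain ⟨a, b, rfl⟩ := Submodule.mem_span_pair.1 hv
    obtain ⟨c, d, rfl⟩ := Submodule.mem_span_pair.1 hw
    simp only [map_add, map_smul, LinearMap.add_apply, LinearMap.smul_apply, hB e, hB f, hef, hfe, smul_zero, add_zero]
  · intro v hv w hw
    obtain ⟨a, b, rfl⟩ := Submodule.mem_span_pair.1 hv
    obtain ⟨c, d, rfl⟩ := Submodule.mem_span_pair.1 hw
    simp only [map_add, map_smul, LinearMap.add_apply, LinearMap.smul_apply, hα, hβ, hB e, hB f, hef, hfe, hrf, hpe,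
      smul_zero, add_zero, zero_add, smul_eq_mul]
    ring
  · intro v hv hv'
    obtain ⟨a, b, rfl⟩ := Submodule.mem_span_pair.1 hv
    obtain ⟨c, d, hcd⟩ := Submodule.mem_span_pair.1 hv'
    have h1 := congrArg (fun x => B x f) hcd
    have h2 := congrArg (fun x => B x e) hcd
    simp only [map_add, map_smul, LinearMap.add_apply, LinearMap.smul_apply, hα, hβ, hB e, hB f, hef, hfe, hrf, hpe,
      smul_zero, add_zero, zero_add, smul_eq_mul] at h1 h2
    have hb : b = 0 := by
      have h3 : b * (β * B p f) = 0 := by linear_combination -h1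
      rcases mul_eq_zero.1 h3 with h4 | h4
      · exact h4
      · exact absurd h4 (mul_ne_zero hβ0 hpf)
    have ha : a = 0 := by
      have h3 : a * (α * B r e) = 0 := by linear_combination -h2
      rcases mul_eq_zero.1 h3 with h4 | h4
      · exact h4
      · exact absurd h4 (mul_ne_zero hα0 hre)
    rw [ha, hb, zero_smul, zero_smul, add_zero]

end Cfsg.Agent.H91.TW
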